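import Cfsg.Agent.Lib.Helper17.ReeMult.Defs

set_option autoImplicit false

/-!
# The outer automorphism group of the small Ree groups (S2127): abstract packages

An automorphism of a small Ree group is the product of an inner and a field automorphism.  After
conjugation it fixes the Sylow `3`-subgroup `U`, its opposite `n U n⁻¹` and the torus `H`
(RIG1); on the coordinates `T t a b` of `U` it is `t ↦ c ψ t` modulo `{T 0 a b}` for a field
automorphism `ψ` (MID, SEMI); an automorphism that is trivial on `H` and on `U` modulo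
`{T 0 a b}` is trivial on `U` (AUTU) and then trivial (RIG2).
-/

universe u v

namespace Cfsg.Agent.Lib.Helper17.ReeOut

open Cfsg.Agent.Lib.Helper17.ReeMult (UData)

/-- the Bruhat data of a group of rank one -/
structure BNData {G : Type u} [Group G] (U H : Subgroup G) (n : G) : Prop where
  cells : ∀ g : G, (∃ u ∈ U, ∃ h ∈ H, g = u * h) ∨
    ∃ u' ∈ U, ∃ h ∈ H, ∃ u ∈ U, g = u' * h * n * u
  hU : ∀ h ∈ H, ∀ u ∈ U, h * u * h⁻¹ ∈ U
  nsq : n * n = 1
  nH : ∀ h ∈ H, n * h * n⁻¹ ∈ H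
  hV : ∀ w ∈ U, ∀ u ∈ U, ∀ h ∈ H, n * w * n⁻¹ = u * h → w = 1
  ti : ∀ g : G, ∀ u ∈ U, u ≠ 1 → g * u * g⁻¹ ∈ U → ∃ v ∈ U, ∃ h ∈ H, g = v * h
  ne : ∃ u ∈ U, u ≠ 1

/-- (RIG1) an automorphism stabilising `U` is, up to an inner automorphism, one that stabilises
`U`, `H` and `n U n⁻¹` -/
def PkgRig1 : Prop :=
  ∀ (G : Type u) [Group G] [Finite G] (U H : Subgroup G) (n : G), BNData U H n →
    ∀ φ : MulAut G, (∀ x, x ∈ U ↔ φ x ∈ U) →
    ∃ b : G, (∀ x, x ∈ U ↔ (MulAut.conj b * φ) x ∈ U) ∧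
      (∀ x, x ∈ H ↔ (MulAut.conj b * φ) x ∈ H) ∧
      ∀ x ∈ U, ∃ y ∈ U, (MulAut.conj b * φ) (n * x * n⁻¹) = n * y * n⁻¹

/-- (RIG1b) an element stabilising `U` and `n U n⁻¹` lies in `H` -/
def PkgRig1b : Prop :=
  ∀ (G : Type u) [Group G] [Finite G] (U H : Subgroup G) (n : G), BNData U H n →
    ∀ g : G, (∀ x ∈ U, g * x * g⁻¹ ∈ U) →
      (∀ x ∈ U, ∃ y ∈ U, g * (n * x * n⁻¹) * g⁻¹ = n * y * n⁻¹) → g ∈ H

/-- (RIG2) an automorphism that is trivial on `U` and on `H` and stabilises `n U n⁻¹` is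
trivial, if `H` acts faithfully on `U` -/
def PkgRig2 : Prop :=
  ∀ (G : Type u) [Group G] [Finite G] (U H : Subgroup G) (n : G), BNData U H n →
    (∀ h ∈ H, (∀ u ∈ U, h * u * h⁻¹ = u) → h = 1) →
    ∀ φ : MulAut G, (∀ u ∈ U, φ u = u) → (∀ h ∈ H, φ h = h) →
    (∀ x ∈ U, ∃ y ∈ U, φ (n * x * n⁻¹) = n * y * n⁻¹) → φ = 1

/-- (SEMI) an injective additive map of a finite field that is semilinear for a map of the
units is a field automorphism times a constant -/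
def PkgSemi : Prop :=
  ∀ (F : Type u) [Field F] [Fintype F] (f : F → F) (α : Fˣ → Fˣ),
    (∀ x y, f (x + y) = f x + f y) → Function.Injective f →
    (∀ (ν : Fˣ) (t : F), f ((ν : F) * t) = (α ν : F) * f t) →
    ∃ (c : Fˣ) (ψ : F ≃+* F), (∀ t, f t = (c : F) * ψ t) ∧ ∀ ν : Fˣ, ((α ν : Fˣ) : F) = ψ (ν : F)

/-- (MID) an automorphism stabilising `{T t a b}` and `{Hh ν}` acts on the first coordinate by
`t ↦ c ψ t` and on the torus by `ψ`, for a field automorphism `ψ` -/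
def PkgMid : Prop :=
  ∀ (F : Type u) [Field F] [Fintype F] (G : Type v) [Group G] (m : ℕ) (T : F → F → F → G)
    (Hh : Fˣ → G) (φ : MulAut G), 1 ≤ m → Fintype.card F = 3 ^ (2 * m + 1) → UData m T Hh →
    (∀ t a b t' a' b', T t a b = T t' a' b' → t = t' ∧ a = a' ∧ b = b') →
    (∀ t a b, ∃ t' a' b', φ (T t a b) = T t' a' b') →
    (∀ ν, ∃ ν', φ (Hh ν) = Hh ν') →
    ∃ (c : Fˣ) (ψ : F ≃+* F), (∀ t a b, ∃ a' b', φ (T t a b) = T ((c : F) * ψ t) a' b') ∧
      ∀ ν : Fˣ, ∃ ν' : Fˣ, (ν' : F) = ψ (ν : F) ∧ φ (Hh ν) = Hh ν'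

/-- (AUTU) an endomorphism that fixes the torus, maps `{T t a b}` onto itself and preserves the
first coordinate is the identity on `{T t a b}` -/
def PkgAutU : Prop :=
  ∀ (F : Type u) [Field F] [Fintype F] (G : Type v) [Group G] (m : ℕ) (T : F → F → F → G)
    (Hh : Fˣ → G) (φ : G →* G), 1 ≤ m → Fintype.card F = 3 ^ (2 * m + 1) → UData m T Hh →
    (∀ t a b t' a' b', T t a b = T t' a' b' → t = t' ∧ a = a' ∧ b = b') →
    (∀ ν, φ (Hh ν) = Hh ν) →
    (∀ t a b, ∃ a' b', φ (T t a b) = T t a' b') →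
    (∀ t a b, ∃ t' a' b', φ (T t' a' b') = T t a b) →
    ∀ t a b, φ (T t a b) = T t a b

end Cfsg.Agent.Lib.Helper17.ReeOut
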